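import Cfsg.Agent.Lib.ToddCox.Glue
set_option autoImplicit false
set_option maxRecDepth 100000
namespace Cfsg.Agent.Lib.ToddCox.RUC4
def E_0 : ℕ := 0xb00000028000028000000b0000090400002c00002c10000090000080400002800002810000080000070000002400002400000070000060000002000002000000060000050400001c00001c10000050000040400001800001810000040000030000001400001400000030000020000001000001000000020000010400000c00000c1000001000000040000080000081000000000000000000040000040000000
end Cfsg.Agent.Lib.ToddCox.RUC4
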